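import Cfsg.Agent.H5.L34.R

/-! The Pauli frame. -/

set_option autoImplicit false
set_option linter.unusedVariables false
set_option linter.unusedSectionVars false
set_option linter.unusedSimpArgs false

namespace Cfsg.Agent.H5.L34

open Matrix Module Cfsg.Agent.H7 Cfsg.Agent.H6.L4 Cfsg.Agent.H8.M3 Cfsg.Agent.LD.F4

universe u

section abstract
variable {G : Type u} [Group G] {Y N : G → G → Prop} {t u x y : G} {E E' : Subgroup G}

theorem comm16 (hE : E16 E) (hx : x ∈ E) (hy : y ∈ E) : x * y = y * x := by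
  have i : ∀ z ∈ E, z⁻¹ = z := fun z hz => inv_eq_of_mul_eq_one_right (hE.1 z hz)
  rw [← i _ (E.mul_mem hx hy), _root_.mul_inv_rev, i x hx, i y hy]

theorem pats (A : Ax G Y N) (f : F1 Y t u) (hE : E16 E) (ht : t ∈ E) (hu : u ∈ E) :
    ∃ a ∈ E, ∃ b ∈ E, N a t ∧ Y a u ∧ Y b t ∧ N b u ∧ Y a b ∧ ∀ x ∈ E, ∃ z,
      (z = 1 ∨ z = t ∨ z = u ∨ z = t * u) ∧ (x = z ∨ x = z * a ∨ x = z * b ∨ x = z * (a * b)) := by
  classical
  have := A.fin
  have := Fintype.ofFinite G
  have di : ∀ {x z}, x ∈ E → z ∈ E → ¬ N x z → Y x z := fun hx hz h =>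
    (A.di (hE.1 _ hz) (comm16 hE hx hz)).resolve_right h
  have s1 : ∀ {x y z}, x ∈ E → y ∈ E → z ∈ E → (N x z ↔ N y z) → Y (x * y) z := fun {x y z} hx hy hz h => by
    by_cases h1 : N x z
    · exact A.nn h1 (h.1 h1)
    · exact A.yy (di hx hz h1) (di hy hz (mt h.2 h1))
  have s2 : ∀ {x y}, x ∈ E → y ∈ E → (N x t ↔ N y t) → (N x u ↔ N y u) → ∃ z,
      (z = 1 ∨ z = t ∨ z = u ∨ z = t * u) ∧ x = z * y := fun {x y} hx hy h1 h2 =>
    ⟨x * y, A.a2 f (hE.1 _ (E.mul_mem hx hy)) (s1 hx hy ht h1) (s1 hx hy hu h2), by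
      rw [mul_assoc, hE.1 y hy, mul_one]⟩
  have s3 := Finset.card_le_mul_card_image (f := fun x => (decide (N x t), decide (N x u)))
    (Finset.univ.filter (· ∈ E)) 4 (fun q hq => by
      obtain ⟨y, hy, rfl⟩ := Finset.mem_image.1 hq
      refine (Finset.card_le_card (t := {1 * y, t * y, u * y, t * u * y}) fun x hx => ?_).trans Finset.card_le_four
      simp only [Finset.mem_filter, Finset.mem_univ, true_and, Prod.mk.injEq, decide_eq_decide] at hx hy
      obtain ⟨z, h1, rfl⟩ := s2 hx.1 hy hx.2.1 hx.2.2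
      rcases h1 with rfl | rfl | rfl | rfl <;> simp)
  rw [← Fintype.card_subtype, ← Nat.card_eq_fintype_card, hE.2] at s3
  have s4 : ∀ q, ∃ x ∈ Finset.univ.filter (· ∈ E), (decide (N x t), decide (N x u)) = q := fun q =>
    Finset.mem_image.1 (by
      rw [Finset.eq_univ_of_card (Finset.image _ _) (le_antisymm (Finset.card_le_univ _)
        (by rw [show Fintype.card (Bool × Bool) = 4 from rfl]; omega))]
      exact Finset.mem_univ q)
  obtain ⟨a, ha, e⟩ := s4 (true, false)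
  obtain ⟨b, hb, e'⟩ := s4 (false, true)
  simp only [Finset.mem_filter, Finset.mem_univ, true_and, Prod.mk.injEq, decide_eq_true_eq,
    decide_eq_false_iff_not] at ha hb e e'
  obtain ⟨b, hb, h1, h2, h3⟩ : ∃ b ∈ E, Y b t ∧ N b u ∧ Y a b := by
    by_cases h : N b a
    · exact ⟨b * t, E.mul_mem hb ht, A.yy (di hb ht e'.1) (A.yr t), A.ny e'.2 f.y, A.ys (A.nn h (A.ns e.1))⟩
    · exact ⟨b, hb, di hb ht e'.1, e'.2, A.ys (di hb ha h)⟩
  refine ⟨a, ha, b, hb, e.1, di ha hu e.2, h1, h2, h3, fun x hx => ?_⟩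
  by_cases c1 : N x t <;> by_cases c2 : N x u
  · obtain ⟨z, h, e⟩ := s2 hx (E.mul_mem ha hb) (iff_of_true c1 (A.ny e.1 h1))
      (iff_of_true c2 (A.yn (di ha hu e.2) h2))
    exact ⟨z, h, by simp [← e]⟩
  · obtain ⟨z, h, e⟩ := s2 hx ha (iff_of_true c1 e.1) (iff_of_false c2 e.2)
    exact ⟨z, h, by simp [← e]⟩
  · obtain ⟨z, h, e⟩ := s2 hx hb (iff_of_false c1 (A.nb h1)) (iff_of_true c2 h2)
    exact ⟨z, h, by simp [← e]⟩
  · exact ⟨x, A.a2 f (hE.1 x hx) (di hx ht c1) (di hx hu c2), Or.inl rfl⟩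

theorem L34_symm (h : L34 Y N t u E E') : L34 Y N t u E' E :=
  ⟨h.f1, h.e', h.e, fun x => by rw [inf_comm]; exact h.inf x, by rw [sup_comm]; exact h.cen, h.card, h.odd,
    h.tr', h.tr, fun x hx e => (h.inv x hx e).symm,
    let ⟨g, a, b, c, d, e⟩ := h.cyc; ⟨g, a, b, c, e, d⟩⟩

theorem L34_cu (h : L34 Y N t u E E') (e : x * t = t * x) : x * u = u * x := by
  have hu := (h.inf u).2 (by simp)
  have : Cen t ≤ Cen u := h.cen ▸ sup_le
    (fun y hy => Subgroup.mem_centralizer_singleton_iff.2 (comm16 h.e hy hu.1))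
    (fun y hy => Subgroup.mem_centralizer_singleton_iff.2 (comm16 h.e' hy hu.2))
  exact Subgroup.mem_centralizer_singleton_iff.1 (this (Subgroup.mem_centralizer_singleton_iff.2 e))

theorem L34_nm (h : L34 Y N t u E E') (hx : x ∈ E') (hy : y ∈ E) : x * y * x⁻¹ ∈ E := by
  have a : E ≤ Cen t := h.cen ▸ le_sup_left
  have b : E' ≤ Cen t := h.cen ▸ le_sup_right
  refine (h.inv _ (Subgroup.mul_mem _ (Subgroup.mul_mem _ (b hx) (a hy)) (Subgroup.inv_mem _ (b hx)))
    (by simp [mul_assoc, ← mul_assoc y y, h.e.1 y hy])).elim id fun e => ?_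
  have : y ∈ E' := by simpa [mul_assoc] using E'.mul_mem (E'.mul_mem (E'.inv_mem hx) e) hx
  rwa [comm16 h.e' hx this, mul_inv_cancel_right]

end abstract

variable {k V : Type*} [Field k] [AddCommGroup V] [Module k V] [FiniteDimensional k V]
  {G : Type u} [Group G] {P : Subgroup (End k V)ˣ} {π : P →* G}

theorem frame (φ : F9 →+* k) (dim : finrank k V = 4) (two : (2 : k) ≠ 0) {t u a b : End k V}
    (tt : t * t = 1) (uu : u * u = 1) (aa : a * a = 1) (bb : b * b = 1) (tu : t * u = u * t)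
    (ab : a * b = b * a) (ta : a * t = -(t * a)) (au : a * u = u * a) (bt : b * t = t * b)
    (bu : b * u = -(u * b)) : ∃ e : Basis (Fin 4) k V, LinearMap.toMatrix e e t = (pm 1).map φ ∧
      LinearMap.toMatrix e e u = (pm 2).map φ ∧ LinearMap.toMatrix e e a = (pm 4).map φ ∧
      LinearMap.toMatrix e e b = (pm 8).map φ := by
  have : Nontrivial V := Module.nontrivial_of_finrank_pos (R := k) (by rw [dim]; omega)
  have h0 : (1 + t) * (1 + u) ≠ 0 := fun e => by
    have e1 : (2 : k) • (1 + u) = (1 + t) * (1 + u) + a * ((1 + t) * (1 + u)) * a := by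
      simp only [mul_add, add_mul, mul_one, one_mul, ta, au, ← mul_assoc, neg_mul, mul_assoc t a a,
        mul_assoc u a a, aa, mul_assoc t a u, mul_assoc (t * u) a a]
      module
    rw [e, mul_zero, zero_mul, add_zero, smul_eq_zero_iff_right two] at e1
    have e2 : (2 : k) • (1 : End k V) = (1 + u) + b * (1 + u) * b := by
      simp only [mul_add, add_mul, mul_one, bu, neg_mul, mul_assoc u b b, bb]
      module
    rw [e1, mul_zero, zero_mul, add_zero, smul_eq_zero_iff_right two] at e2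
    exact one_ne_zero e2
  obtain ⟨v1, hv1⟩ : ∃ v, ((1 + t) * (1 + u)) v ≠ 0 := by
    by_contra! h
    exact h0 (LinearMap.ext h)
  have et : t (((1 + t) * (1 + u)) v1) = ((1 + t) * (1 + u)) v1 := by
    rw [← End.mul_apply, ← mul_assoc, mul_add t, tt, mul_one, add_comm t]
  have eu : u (((1 + t) * (1 + u)) v1) = ((1 + t) * (1 + u)) v1 := by
    rw [← End.mul_apply]
    congr 1
    simp only [mul_add, add_mul, mul_one, one_mul, ← mul_assoc, ← tu, mul_assoc t u u, uu]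
    abel
  generalize ((1 + t) * (1 + u)) v1 = v at hv1 et eu
  have p1 : ∀ v, t (a v) = -a (t v) := fun v => by simpa using (congrArg (fun f => -(f v)) ta).symm
  have p2 : ∀ v, t (b v) = b (t v) := fun v => (congrArg (· v) bt).symm
  have p3 : ∀ v, u (a v) = a (u v) := fun v => (congrArg (· v) au).symm
  have p4 : ∀ v, u (b v) = -b (u v) := fun v => by simpa using (congrArg (fun f => -(f v)) bu).symm
  have p5 : ∀ v, b (a v) = a (b v) := fun v => (congrArg (· v) ab).symm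
  have p6 : ∀ v, a (a v) = v := fun v => congrArg (· v) aa
  have p7 : ∀ v, b (b v) = v := fun v => congrArg (· v) bb
  have n1 : ∀ v, a v = 0 → v = 0 := fun v e => by rw [← p6 v, e, map_zero]
  have n2 : ∀ v, b v = 0 → v = 0 := fun v e => by rw [← p7 v, e, map_zero]
  have li := End.eigenvectors_linearIndependent' (φ w • t + u) (fun i => φ (![w + 1, w - 1, -w + 1, -w - 1] i))
    (φ.injective.comp (by decide)) ![v, b v, a v, a (b v)] fun i => by
      refine ⟨End.mem_eigenspace_iff.2 ?_, ?_⟩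
      · fin_cases i <;> simp [p1, p2, p3, p4, et, eu] <;> module
      · fin_cases i
        exacts [hv1, mt (n2 _) hv1, mt (n1 _) hv1, mt (fun e => n2 _ (n1 _ e)) hv1]
  let e := basisOfLinearIndependentOfCardEqFinrank li (by simp [dim])
  have he : ∀ i, e i = ![v, b v, a v, a (b v)] i := fun i => by simp [e]
  have key : ∀ (f : End k V) (M : Matrix (Fin 4) (Fin 4) k), (∀ j, f (e j) = ∑ i, M i j • e i) →
      LinearMap.toMatrix e e f = M := fun f M h => by
    rw [show f = toLin e e M from e.ext fun j => by rw [toLin_self, h], LinearMap.toMatrix_toLin]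
  rw [show pm 1 = !![1, 0, 0, 0; 0, 1, 0, 0; 0, 0, -1, 0; 0, 0, 0, -1] by decide +kernel,
    show pm 2 = !![1, 0, 0, 0; 0, -1, 0, 0; 0, 0, 1, 0; 0, 0, 0, -1] by decide +kernel,
    show pm 4 = !![0, 0, 1, 0; 0, 0, 0, 1; 1, 0, 0, 0; 0, 1, 0, 0] by decide +kernel,
    show pm 8 = !![0, 1, 0, 0; 1, 0, 0, 0; 0, 0, 0, 1; 0, 0, 1, 0] by decide +kernel]
  refine ⟨e, key _ _ fun j => ?_, key _ _ fun j => ?_, key _ _ fun j => ?_, key _ _ fun j => ?_⟩ <;>
    fin_cases j <;> simp [Fin.sum_univ_four, he, p1, p2, p3, p4, p5, p6, p7, et, eu]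

theorem nlift [IsAlgClosed k] (H : St P π) {a : G} (h : a * a = 1) :
    ∃ (g : P) (c : k) (f : End k V), π g = a ∧ c ≠ 0 ∧ g.1.1 = c • f ∧ f * f = 1 := by
  obtain ⟨g, rfl⟩ := H.surj a
  obtain ⟨d, hd⟩ := (H.ker (g * g)).1 (by rw [map_mul, h])
  obtain ⟨c, rfl⟩ := IsAlgClosed.exists_eq_mul_self d
  have h0 : c ≠ 0 := left_ne_zero_of_mul (H.ne0 hd)
  refine ⟨g, c, c⁻¹ • g.1.1, rfl, h0, by simp [smul_smul, h0], ?_⟩
  rw [smul_mul_smul_comm, show g.1.1 * g.1.1 = _ from hd, smul_smul]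
  simp [mul_mul_mul_comm _ _ c c, h0]

theorem tr_comm (H : St P π) {ε c d : k} {x y g g' : P} {f f' : End k V} (e : π x = π g) (e' : π y = π g')
    (hc : c ≠ 0) (hd : d ≠ 0) (h : g.1.1 = c • f) (h' : g'.1.1 = d • f')
    (r : x.1.1 * y.1.1 = ε • (y.1.1 * x.1.1)) : f * f' = ε • (f' * f) := by
  obtain ⟨a, ha⟩ := H.eq_iff.1 e
  obtain ⟨b, hb⟩ := H.eq_iff.1 e'
  have a0 : a ≠ 0 := by rintro rfl; have := H.nontriv; exact x.1.ne_zero (by simpa only [zero_smul] using ha)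
  have b0 : b ≠ 0 := by rintro rfl; have := H.nontriv; exact y.1.ne_zero (by simpa only [zero_smul] using hb)
  rw [ha, hb, h, h'] at r
  simp only [smul_mul_smul_comm, smul_smul] at r
  refine smul_right_injective _ (mul_ne_zero (mul_ne_zero a0 hc) (mul_ne_zero b0 hd)) ?_
  simp only [r, smul_smul]
  congr 1; ring

theorem exists_frame [IsAlgClosed k] (φ : F9 →+* k) (H : Beta P π) {t u a b : G} (tt : t * t = 1)
    (uu : u * u = 1) (aa : a * a = 1) (bb : b * b = 1) (tu : Yc π t u) (ab : Yc π a b) (ta : Nc π a t)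
    (au : Yc π a u) (bt : Yc π b t) (bu : Nc π b u) :
    ∃ s : Sx π, R s (pm 1) t ∧ R s (pm 2) u ∧ R s (pm 4) a ∧ R s (pm 8) b := by
  obtain ⟨g1, c1, f1, rfl, n1, e1, s1⟩ := nlift H.toSt tt
  obtain ⟨g2, c2, f2, rfl, n2, e2, s2⟩ := nlift H.toSt uu
  obtain ⟨g3, c3, f3, rfl, n3, e3, s3⟩ := nlift H.toSt aa
  obtain ⟨g4, c4, f4, rfl, n4, e4, s4⟩ := nlift H.toSt bb
  have y : ∀ {g g' : P} {c d : k} {f f'}, c ≠ 0 → d ≠ 0 → g.1.1 = c • f → g'.1.1 = d • f' → Yc π (π g) (π g') →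
      f * f' = f' * f := fun hc hd h h' ⟨x, y, e, e', r⟩ => by
    simpa using tr_comm H.toSt (ε := 1) e e' hc hd h h' (by simpa using congrArg Units.val r)
  have n : ∀ {g g' : P} {c d : k} {f f'}, c ≠ 0 → d ≠ 0 → g.1.1 = c • f → g'.1.1 = d • f' → Nc π (π g) (π g') →
      f * f' = -(f' * f) := fun hc hd h h' ⟨x, y, e, e', r⟩ => by
    simpa using tr_comm H.toSt (ε := -1) e e' hc hd h h' (by simpa using congrArg Units.val r)
  obtain ⟨e, a1, a2, a3, a4⟩ := frame φ H.dim H.two s1 s2 s3 s4 (y n1 n2 e1 e2 tu) (y n3 n4 e3 e4 ab)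
    (n n3 n1 e3 e1 ta) (y n3 n2 e3 e2 au) (y n4 n1 e4 e1 bt) (n n4 n2 e4 e2 bu)
  have key : ∀ {g : P} {c f} {m : M4}, g.1.1 = c • f → LinearMap.toMatrix e e f = m.map φ → m.det = 1 →
      R (π := π) ⟨φ, e, H⟩ m (π g) := fun {g c f m} h h' hm => by
    have h1 : Rk (π := π) ⟨φ, e, H⟩ (c • m.map φ) (π g) := 
      ⟨g, by change LinearMap.toMatrix e e _ = _; rw [h, map_smul, h'], rfl⟩
    have h4 := h1.four rfl (by rw [← RingHom.mapMatrix_apply, ← RingHom.map_det, hm, map_one])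
    have := h1.sc (c := c ^ 3) (by rw [← pow_mul, mul_comm, pow_mul, h4, one_pow])
    rwa [smul_smul, ← pow_succ, h4, one_smul] at this
  exact ⟨⟨φ, e, H⟩, key e1 a1 (by decide +kernel), key e2 a2 (by decide +kernel), key e3 a3 (by decide +kernel),
    key e4 a4 (by decide +kernel)⟩

end Cfsg.Agent.H5.L34
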