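import Cfsg.Agent.H5.L34.A

/-! The second elementary abelian group and the Weyl elements. -/

set_option autoImplicit false
set_option linter.unusedVariables false
set_option linter.unusedSectionVars false
set_option linter.unusedSimpArgs false

namespace Cfsg.Agent.H5.L34

open Matrix Module Cfsg.Agent.H7 Cfsg.Agent.H6.L4 Cfsg.Agent.H8.M3 Cfsg.Agent.LD.F4

universe u

variable {k V : Type*} [Field k] [AddCommGroup V] [Module k V] [FiniteDimensional k V]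
  {G : Type u} [Group G] {P : Subgroup (End k V)ˣ} {π : P →* G} {s : Sx π} {m n : M4} {t u x y : G}
  {σ τ : Fin 16 → Fin 16} {E E' : Subgroup G} {Y N : G → G → Prop}

theorem dv_dv : ∀ i, dv i * dv' i = 1 := by decide

/-- the shifted frame -/
noncomputable def Sx.sh (s : Sx π) : Sx π :=
  ⟨s.φ, s.b.unitsSMul fun i => Units.mkOfMulEqOne (s.φ (dv i)) (s.φ (dv' i))
    (by rw [← map_mul, dv_dv, map_one]), s.H⟩

theorem R_sh : R s.sh m x ↔ R s (cj m) x := by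
  refine exists_congr fun g => and_congr_left' ?_
  have e : ∀ i j, LinearMap.toMatrix s.sh.b s.sh.b g.1.1 i j =
      s.φ (dv' i) * LinearMap.toMatrix s.b s.b g.1.1 i j * s.φ (dv j) := fun i j => by
    simp only [LinearMap.toMatrix_apply, Sx.sh, Basis.repr_unitsSMul, Basis.unitsSMul_apply, Units.smul_def,
      map_smul, Finsupp.smul_apply, smul_eq_mul]
    change s.φ (dv j) * (s.φ (dv' i) * _) = _
    ring
  have d : ∀ i, s.φ (dv i) * s.φ (dv' i) = 1 := fun i => by rw [← map_mul, dv_dv, map_one]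
  simp only [← ext_iff, e, map_apply, cj, of_apply, map_mul]
  refine forall₂_congr fun i j => ⟨fun h => ?_, fun h => ?_⟩
  · change _ = s.φ _ at h
    rw [← h]
    linear_combination -(LinearMap.toMatrix s.b s.b g.1.1 i j) * (d i + s.φ (dv i) * s.φ (dv' i) * d j)
  · change _ = s.φ _
    rw [h]
    linear_combination s.φ (m i j) * (d i + s.φ (dv i) * s.φ (dv' i) * d j)

/-- the two elementary abelian groups are the two Pauli groups -/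
structure Fr (s : Sx π) (t u : G) (E E' : Subgroup G) : Prop where
  t : R s (pm 1) t
  u : R s (pm 2) u
  p : Pa s
  p' : Pa s.sh
  e : ∀ x, x ∈ E ↔ ∃ v, R s (pm v) x
  e' : ∀ x, x ∈ E' ↔ ∃ v, R s.sh (pm v) x

theorem Fr.sh (h : Fr s t u E E') : Fr s.sh t u E' E := by
  refine ⟨R_sh.2 (by rw [cj2.2.2.2.2.1 1 (by decide)]; exact h.t),
    R_sh.2 (by rw [cj2.2.2.2.2.1 2 (by decide)]; exact h.u), h.p', fun v => ?_, h.e', fun x => ?_⟩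
  · obtain ⟨a, e⟩ := cj2.1 v
    obtain ⟨x, hx⟩ := h.p a
    exact ⟨x, R_sh.2 (R_sh.2 (hx.sm e))⟩
  · rw [h.e]
    refine ⟨fun ⟨a, hx⟩ => ?_, fun ⟨v, hx⟩ => ?_⟩
    · obtain ⟨v, e⟩ := cj2.2.1 a
      exact ⟨v, R_sh.2 (R_sh.2 (hx.sm e))⟩
    · obtain ⟨a, e⟩ := cj2.1 v
      exact ⟨a, (R_sh.1 (R_sh.1 hx)).sm (e.symm s)⟩

theorem Act.ex (hp : Pa s) (he : ∀ x, x ∈ E ↔ ∃ v, R s (pm v) x) (h : ∀ y ∈ E, x * y * x⁻¹ ∈ E) :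
    ∃ σ, Act s x σ := by
  choose f hf using hp
  choose σ hσ using fun v => (he _).1 (h _ ((he _).2 ⟨v, hf v⟩))
  exact ⟨σ, fun v y hy => (hf v).uniq hy ▸ hσ v⟩

theorem Act.fix (h : Act s x σ) {v : Fin 16} (hy : R s (pm v) y) : σ v = v ↔ x * y = y * x :=
  ⟨fun e => mul_inv_eq_iff_eq_mul.1 ((h _ _ hy).uniq (e.symm ▸ hy)), fun e =>
    pm_inj _ _ ((h _ _ hy).eq (by rwa [e, mul_inv_cancel_right]))⟩

theorem Act.cen (hp : Pa s) (h : Act s x σ) (h1 : σ 1 = 1) (h2 : σ 2 = 2) :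
    ∃ r v, r < 4 ∧ R s (bm r * pm v) x := by
  obtain ⟨r, e⟩ := bs_all (σ 4) (σ 8) (by rw [← h.sp hp 1 4, h1]) (by rw [← h.sp hp 2 4, h2])
    (by rw [← h.sp hp 1 8, h1]) (by rw [← h.sp hp 2 8, h2]) (h.sp hp 4 8)
  obtain ⟨v, y, a, b⟩ := h.lift hp (bm_un.1 r).1 (by
    rw [h.lin hp, h1, h2]; simpa only [e] using (bm_un.1 r).2)
  refine ⟨r, v, lt_of_not_ge fun hr => (bm_bad r hr).1 ?_, by simpa [mul_assoc, a.psq] using b.mul a⟩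
  rcases (bm_bad r hr).2 with rfl | e
  · exact R.hm b
  · exact b.ns (bm_un.1 r).1.1 e (by decide)

theorem exists_Fr [IsAlgClosed k] (φ : F9 →+* k) (H : Beta P π) (A : Ax G (Yc π) (Nc π))
    (h : L34 (Yc π) (Nc π) t u E E') : ∃ s : Sx π, Fr s t u E E' := by
  have ht := (h.inf t).2 (by simp)
  have hu := (h.inf u).2 (by simp)
  obtain ⟨a, ha, b, hb, h1, h2, h3, h4, h5, h6⟩ := pats A h.f1 h.e ht.1 hu.1
  obtain ⟨s, rt, ru, ra, rb⟩ := exists_frame φ H h.f1.it.1 h.f1.iu.1 (h.e.1 a ha) (h.e.1 b hb) h.f1.y h5 h1 h2 h3 h4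
  have r0 : R s (pm 0) 1 := pm0 ▸ R.one
  have p0 : ∀ v, ∃ x ∈ E, R s (pm v) x := ind16 ⟨1, E.one_mem, r0⟩ ⟨t, ht.1, rt⟩ ⟨u, hu.1, ru⟩ ⟨a, ha, ra⟩
    ⟨b, hb, rb⟩ fun v u ⟨x, a, b⟩ ⟨y, c, d⟩ => ⟨_, E.mul_mem a c, b.pmul d⟩
  have p : Pa s := fun v => let ⟨x, _, a⟩ := p0 v; ⟨x, a⟩
  have bb : ∀ z, z = 1 ∨ z = t ∨ z = u ∨ z = t * u → ∃ v : Fin 16, v.1 < 4 ∧ R s (pm v) z := by
    rintro z (rfl | rfl | rfl | rfl)
    exacts [⟨0, by decide, r0⟩, ⟨1, by decide, rt⟩, ⟨2, by decide, ru⟩, ⟨_, by decide, rt.pmul ru⟩]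
  have e : ∀ x, x ∈ E ↔ ∃ v, R s (pm v) x := fun x => ⟨fun hx => by
    obtain ⟨z, hz, e⟩ := h6 x hx
    obtain ⟨v, -, hv⟩ := bb z hz
    rcases e with rfl | rfl | rfl | rfl
    exacts [⟨_, hv⟩, ⟨_, hv.pmul ra⟩, ⟨_, hv.pmul rb⟩, ⟨_, hv.pmul (ra.pmul rb)⟩],
    fun ⟨v, hv⟩ => let ⟨y, a, b⟩ := p0 v; b.uniq hv ▸ a⟩
  have e' : ∀ x : E', ∃ v, R s.sh (pm v) x := fun ⟨x, hx⟩ => by
    obtain ⟨σ, hσ⟩ := Act.ex p e fun y hy => L34_nm h hx hy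
    obtain ⟨r, v, hr, q⟩ := hσ.cen p ((hσ.fix rt).2 (comm16 h.e' hx ht.2)) ((hσ.fix ru).2 (comm16 h.e' hx hu.2))
    by_cases h0 : r = 0
    · obtain ⟨v, a, b⟩ := bb x ((h.inf x).1 ⟨(e x).2 ⟨v, by simpa [h0, bm] using q⟩, hx⟩)
      exact ⟨v, R_sh.2 (by rwa [cj2.2.2.2.2.1 v a])⟩
    · obtain ⟨a, b⟩ := bm_good r hr h0 v ((q.mul q).eq (by rw [h.e'.1 x hx]; exact R.one))
      exact ⟨a, R_sh.2 (q.sm b)⟩
  choose f hf using e'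
  have := A.fin
  have sj := (Function.Injective.bijective_of_nat_card_le (f := f)
    (fun x y e => Subtype.ext ((hf x).uniq (e ▸ hf y))) (by simp [h.e'.2])).2
  refine ⟨s, rt, ru, p, fun v => ?_, e, fun x => ⟨fun hx => ⟨_, hf ⟨x, hx⟩⟩, fun ⟨v, hv⟩ => ?_⟩⟩
  · obtain ⟨x, rfl⟩ := sj v
    exact ⟨_, hf x⟩
  · obtain ⟨y, rfl⟩ := sj v
    exact (hf y).uniq hv ▸ y.2

theorem Act.ev (hp : Pa s) (L : Subgroup G) {c d : G} (hc : c ∈ L) (hd : d ∈ L) (hx : x ∈ L) (rc : R s y1 c)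
    (rd : R s y2 d) (h : Act s x σ) (l : List (Fin 3)) : ∃ z ∈ L, Act s z (ev σ l) := by
  induction l with
  | nil => exact ⟨1, L.one_mem, Act.one⟩
  | cons i l ih =>
    obtain ⟨z, a, b⟩ := ih
    fin_cases i
    exacts [⟨_, L.mul_mem hc a, (Act.of hp rc inds.1).mul b⟩, ⟨_, L.mul_mem hd a, (Act.of hp rd inds.2.1).mul b⟩,
      ⟨_, L.mul_mem hx a, h.mul b⟩]

theorem Fr.ys (f : Fr s t u E E') : ∃ c ∈ E ⊔ E', ∃ d ∈ E ⊔ E', R s y1 c ∧ R s y2 d := by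
  obtain ⟨a, ha⟩ := f.p 4
  obtain ⟨b, hb⟩ := f.p 8
  obtain ⟨a', ha'⟩ := f.p' 4
  obtain ⟨b', hb'⟩ := f.p' 8
  exact ⟨b * b', Subgroup.mul_mem_sup ((f.e _).2 ⟨_, hb⟩) ((f.e' _).2 ⟨_, hb'⟩), a * a',
    Subgroup.mul_mem_sup ((f.e _).2 ⟨_, ha⟩) ((f.e' _).2 ⟨_, ha'⟩), cj2.2.2.2.2.2.2.2 ▸ hb.mul (R_sh.1 hb'),
    cj2.2.2.2.2.2.2.1 ▸ ha.mul (R_sh.1 ha')⟩

theorem Fr.weyl (f : Fr s t u E E') (h : L34 Y N t u E E') :
    (∃ x, R s W0 x) ∨ ∃ x, R s.sh.sh W0 x := by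
  obtain ⟨c, -, d, -, rc, rd⟩ := f.ys
  obtain ⟨b, hb⟩ := f.p 8
  obtain ⟨g, hg, e⟩ := h.tr b ((f.e _).2 ⟨_, hb⟩) (by
    rintro rfl
    exact absurd (pm_inj 8 0 (hb.eq (pm0 ▸ R.one))) (by decide))
  obtain ⟨σ, hσ⟩ := Act.ex f.p f.e fun y hy => (Subgroup.mem_normalizer_iff.1 hg y).1 hy
  have h1 : σ 1 = 8 := pm_inj _ _ ((hσ _ _ f.t).eq (e ▸ hb))
  obtain ⟨l, -, hl⟩ := wl_all (σ 2) (h1 ▸ hσ.sp f.p 1 2) (σ 4) (h1 ▸ hσ.sp f.p 1 4) (hσ.sp f.p 2 4) (σ 8)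
    (h1 ▸ hσ.sp f.p 1 8) (hσ.sp f.p 2 8) (hσ.sp f.p 4 8)
  rw [show lin 8 (σ 2) (σ 4) (σ 8) = σ by have := hσ.lin f.p; rw [h1] at this; exact this.symm] at hl
  obtain ⟨z, -, hz⟩ := hσ.ev f.p ⊤ trivial trivial trivial rc rd l
  rcases hl with ⟨a, b⟩ | a | a
  · exact absurd ((hz.fix f.u).2 (L34_cu h ((hz.fix f.t).1 a))) b
  · obtain ⟨v, y, -, q⟩ := hz.lift f.p bm_un.2.1 (funext a ▸ inds.2.2.1)
    exact Or.inl ⟨_, q⟩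
  · obtain ⟨v, y, -, q⟩ := hz.lift f.p bm_un.2.2 (funext a ▸ inds.2.2.2)
    exact Or.inr ⟨_, R_sh.2 (R_sh.2 q)⟩

theorem Fr.trans (f : Fr s t u E E') (L : Subgroup G) (hL : E ⊔ E' ≤ L) (hx : x ∈ L) (rx : R s W0 x)
    (hy : y ∈ E) (h1 : y ≠ 1) : ∃ g ∈ L, g * t * g⁻¹ = y := by
  obtain ⟨c, hc, d, hd, rc, rd⟩ := f.ys
  obtain ⟨v, hv⟩ := (f.e y).1 hy
  obtain ⟨l, -, hl⟩ := wt_all v (by rintro rfl; exact h1 (hv.uniq (pm0 ▸ R.one)))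
  obtain ⟨z, a, hz⟩ := (Act.of f.p rx inds.2.2.1).ev f.p L (hL hc) (hL hd) hx rc rd l
  exact ⟨z, a, (hz _ _ f.t).uniq (hl ▸ hv)⟩

theorem Fr.le (f : Fr s t u E E') (L : Subgroup G) (h : ∀ x, R s (pm 1) x ∨ R s (pm 2) x ∨ R s (pm 4) x ∨
    R s (pm 8) x → x ∈ L) : E ≤ L := fun x hx => by
  obtain ⟨v, hv⟩ := (f.e x).1 hx
  refine ind16 (Φ := fun v => ∀ x, R s (pm v) x → x ∈ L) (fun x hx => ?_) (fun x hx => h x (by simp [hx]))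
    (fun x hx => h x (by simp [hx])) (fun x hx => h x (by simp [hx])) (fun x hx => h x (by simp [hx]))
    (fun v u a b x hx => ?_) v x hv
  · exact (R.one.uniq (pm0 ▸ hx) : 1 = x) ▸ L.one_mem
  · obtain ⟨y, hy⟩ := f.p v
    obtain ⟨z, hz⟩ := f.p u
    exact (hy.pmul hz).uniq hx ▸ L.mul_mem (a y hy) (b z hz)

end Cfsg.Agent.H5.L34
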