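import Cfsg.Agent.H5.L34.D
import Cfsg.Agent.LD.F4.If

/-! Matrices representing elements of the projective group. -/

set_option autoImplicit false
set_option linter.unusedVariables false
set_option linter.unusedSectionVars false
set_option linter.unusedSimpArgs false

namespace Cfsg.Agent.H5.L34

open Matrix Module Cfsg.Agent.H7 Cfsg.Agent.H6.L4 Cfsg.Agent.H8.M3

universe u

variable {k V : Type*} [Field k] [AddCommGroup V] [Module k V] [FiniteDimensional k V]
  {G : Type u} [Group G] {P : Subgroup (End k V)ˣ}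

/-- a basis and an embedding of the field with nine elements -/
structure Sx {P : Subgroup (End k V)ˣ} (π : P →* G) where
  φ : F9 →+* k
  b : Basis (Fin 4) k V
  H : Beta P π

variable {π : P →* G} {s : Sx π} {A B : Matrix (Fin 4) (Fin 4) k} {m n m' : M4} {x y : G}
  {σ τ : Fin 16 → Fin 16}

def Rk (s : Sx π) (A : Matrix (Fin 4) (Fin 4) k) (x : G) : Prop :=
  ∃ g : P, LinearMap.toMatrix s.b s.b g.1.1 = A ∧ π g = x

def R (s : Sx π) (m : M4) (x : G) : Prop := Rk s (m.map s.φ) x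

theorem Rk.mul (h : Rk s A x) (h' : Rk s B y) : Rk s (A * B) (x * y) :=
  let ⟨g, a, b⟩ := h
  let ⟨g', a', b'⟩ := h'
  ⟨g * g', by rw [← a, ← a', ← LinearMap.toMatrix_mul]; rfl, by rw [map_mul, b, b']⟩

theorem Rk.one : Rk s 1 1 := ⟨1, by simp, map_one _⟩

theorem Rk.ex (s : Sx π) (x : G) : ∃ A, Rk s A x := let ⟨g, e⟩ := s.H.surj x; ⟨_, g, rfl, e⟩

theorem Rk.det (h : Rk s A x) : A.det = 1 := by
  obtain ⟨g, rfl, -⟩ := h
  rw [LinearMap.det_toMatrix, s.H.det g g.2]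

theorem Rk.uniq (h : Rk s A x) (h' : Rk s A y) : x = y := by
  obtain ⟨g, a, rfl⟩ := h
  obtain ⟨g', a', rfl⟩ := h'
  rw [show g = g' from Subtype.ext (Units.ext ((LinearMap.toMatrix s.b s.b).injective (a.trans a'.symm)))]

theorem Rk.sc (h : Rk s A x) {c : k} (hc : c ^ 4 = 1) : Rk s (c • A) x := by
  obtain ⟨g, rfl, rfl⟩ := h
  have h0 : c ≠ 0 := by rintro rfl; simp at hc
  exact ⟨⟨H6.L4.sc V c h0, s.H.sc_mem h0 hc⟩ * g, by simp [sc_val], s.H.eq_iff.2 ⟨c, by simp [sc_val]⟩⟩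

theorem Rk.four (h : Rk s A x) {c : k} (e : A = c • B) (hB : B.det = 1) : c ^ 4 = 1 := by
  simpa [e, hB] using h.det

theorem Rk.eq (h : Rk s A x) (h' : Rk s B x) : ∃ c : k, c ^ 4 = 1 ∧ A = c • B := by
  have hd := h'.det
  have h1 := h
  obtain ⟨g, a, b⟩ := h
  obtain ⟨g', a', b'⟩ := h'
  obtain ⟨c, hc⟩ := s.H.eq_iff.1 (b.trans b'.symm)
  have e : A = c • B := by rw [← a, ← a', hc, map_smul]
  exact ⟨c, h1.four e hd, e⟩

theorem Rk.inv (h : Rk s A x) (e : A * B = 1) : Rk s B x⁻¹ := by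
  obtain ⟨g, rfl, rfl⟩ := h
  refine ⟨g⁻¹, left_inv_eq_right_inv ?_ e, map_inv _ _⟩
  rw [← LinearMap.toMatrix_mul]
  simp

theorem Rk.unit (h : Rk s A x) : IsUnit A := (isUnit_iff_isUnit_det _).2 (by simp [h.det])

theorem φ_w (s : Sx π) : s.φ w * s.φ w = -1 := by
  rw [← map_mul, show w * w = -1 by decide, map_neg, map_one]

theorem map_sm (s : Sx π) (c : F9) (m : M4) : (c • m).map s.φ = s.φ c • m.map s.φ := by
  ext i j; simp

theorem sm_iff (s : Sx π) : Sm m n ↔ ∃ c : k, c ^ 4 = 1 ∧ m.map s.φ = c • n.map s.φ := by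
  have hw := φ_w s
  constructor
  · rintro (rfl | rfl | rfl | rfl)
    · exact ⟨1, by simp, by simp⟩
    · exact ⟨-1, by ring, by ext i j; simp⟩
    · exact ⟨_, by linear_combination (s.φ w ^ 2 - 1) * hw, map_sm s _ _⟩
    · exact ⟨_, by rw [map_neg]; linear_combination (s.φ w ^ 2 - 1) * hw, map_sm s _ _⟩
  · rintro ⟨c, hc, e⟩
    have : (c - 1) * ((c + 1) * ((c - s.φ w) * (c + s.φ w))) = 0 := by
      linear_combination hc - (c ^ 2 - 1) * hw
    have inj : ∀ d : F9, c = s.φ d → m = d • n := fun d hd =>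
      map_injective s.φ.injective (by simp only; rw [e, map_sm, hd])
    simp only [mul_eq_zero, sub_eq_zero, add_eq_zero_iff_eq_neg] at this
    rcases this with h | h | h | h
    · exact Or.inl (by simpa using inj 1 (by simpa using h))
    · exact Or.inr (Or.inl (by simpa using inj (-1) (by simpa using h)))
    · exact Or.inr (Or.inr (Or.inl (inj _ h)))
    · exact Or.inr (Or.inr (Or.inr (inj _ (by simpa using h))))

theorem R.mul (h : R s m x) (h' : R s n y) : R s (m * n) (x * y) := by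
  rw [R, Matrix.map_mul]; exact Rk.mul h h'

theorem R.one : R s 1 1 := by rw [R, Matrix.map_one _ (map_zero _) (map_one _)]; exact Rk.one

theorem R.sm (h : R s n x) (e : Sm m n) : R s m x := by
  obtain ⟨c, hc, e⟩ := (sm_iff s).1 e
  rw [R, e]; exact Rk.sc h hc

theorem Sm.symm (s : Sx π) (e : Sm m n) : Sm n m := by
  obtain ⟨c, hc, e⟩ := (sm_iff s).1 e
  refine (sm_iff s).2 ⟨c ^ 3, by rw [← pow_mul, mul_comm, pow_mul, hc, one_pow], ?_⟩
  rw [e, smul_smul, ← pow_succ, hc, one_smul]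

theorem R.eq (h : R s m x) (h' : R s n x) : Sm m n := (sm_iff s).2 (Rk.eq h h')

theorem R.uniq (h : R s m x) (h' : R s m y) : x = y := Rk.uniq h h'

theorem R.inv (h : R s m x) (e : m * n = 1) : R s n x⁻¹ :=
  Rk.inv h (by rw [← Matrix.map_mul, e, Matrix.map_one _ (map_zero _) (map_one _)])

theorem R.ns (h : R s m x) (e : m * n = 1) {θ : F9} (e' : m + n = θ • 1) (h0 : θ ≠ 0) : Sm m 1 := by
  obtain ⟨g', a', b'⟩ := h.inv e
  obtain ⟨g, a, b⟩ := id h
  have : g' = g⁻¹ := Subtype.ext (Units.ext ((LinearMap.toMatrix s.b s.b).injective (a'.trans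
    (left_inv_eq_right_inv (a := LinearMap.toMatrix s.b s.b g.1.1) (by rw [← LinearMap.toMatrix_mul]; simp)
      (by rw [a, ← Matrix.map_mul, e, Matrix.map_one _ (map_zero _) (map_one _)])).symm)))
  subst this
  rcases s.H.ns g g.2 (s.φ θ) ((LinearMap.toMatrix s.b s.b).injective (by
    rw [H6.S4.T, map_add, a, show (g.1⁻¹ : (End k V)ˣ) = (g⁻¹ : P).1 from rfl, a', ← Matrix.map_add _ (map_add _),
      e', map_sm]
    simp [Matrix.map_one])) with h1 | h1
  · exact R.eq h (by rw [← b, (s.H.ker g).2 h1]; exact R.one)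
  · exact absurd (s.φ.injective (by simpa using h1)) h0

theorem R.hm {c d : F9} (h : R s (diagonal ![c, c, c, d]) x) : Sm (diagonal ![c, c, c, d]) 1 := by
  obtain ⟨g, a, b⟩ := id h
  refine R.eq h ?_
  rw [← b, (s.H.ker g).2 (s.H.hm g g.2 (s.φ c) (s.b 3) fun v => ⟨(s.φ d - s.φ c) * s.b.repr v 3, ?_⟩)]
  · exact R.one
  rw [← Matrix.toLin_toMatrix s.b s.b g.1.1, a, diagonal_map (map_zero _), toLin_apply]
  nth_rw 2 [← s.b.sum_repr v]
  simp only [Fin.sum_univ_four, mulVec_diagonal]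
  simp
  module

theorem R.pmul {v u : Fin 16} (h : R s (pm v) x) (h' : R s (pm u) y) : R s (pm (v ^^^ u)) (x * y) := by
  refine (h.mul h').sm (Sm.symm s ?_)
  rw [pm_mul]
  rcases (sg_sq v u).1 with e | e <;> simp [e, Sm]

theorem R.psq {v : Fin 16} (h : R s (pm v) x) : x * x = 1 := by
  have := h.pmul h
  rw [(sg_sq v v).2.2, pm0] at this
  exact this.uniq R.one

theorem pm_comm (v u : Fin 16) : pm v * pm u = sp v u • (pm u * pm v) := by
  rw [pm_mul, pm_mul, smul_smul, sp, (sg_sq u v).2.1]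
  rcases (sg_sq u v).1 with e | e <;> simp [e]

theorem sp_sq (v u : Fin 16) : sp v u * sp v u = 1 := by
  rcases (sg_sq u v).1 with e | e <;> rcases (sg_sq v u).1 with e' | e' <;> simp [e, e', sp]

theorem pm_sq (v : Fin 16) : pm v * pm v = sg v v • 1 := by rw [pm_mul, (sg_sq v v).2.2, pm0]

/-- all Pauli matrices occur -/
def Pa (s : Sx π) : Prop := ∀ v, ∃ x, R s (pm v) x

/-- `x` acts as `σ` -/
def Act (s : Sx π) (x : G) (σ : Fin 16 → Fin 16) : Prop :=
  ∀ v y, R s (pm v) y → R s (pm (σ v)) (x * y * x⁻¹)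

theorem Act.mul (h : Act s x σ) (h' : Act s y τ) : Act s (x * y) (σ ∘ τ) := fun v z hz => by
  simpa [mul_assoc] using h _ _ (h' v z hz)

theorem Act.one : Act s 1 id := fun v z hz => by simpa using hz

theorem Act.of (hp : Pa s) (h : R s m x) (e : Ind m σ) : Act s x σ := fun v y hy => by
  obtain ⟨z, hz⟩ := hp (σ v)
  rwa [← ((hz.mul h).uniq ((h.mul hy).sm (e v))), mul_inv_cancel_right]

theorem Act.add (hp : Pa s) (h : Act s x σ) (v u : Fin 16) : σ (v ^^^ u) = σ v ^^^ σ u := by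
  obtain ⟨y, hy⟩ := hp v
  obtain ⟨z, hz⟩ := hp u
  exact pm_inj _ _ ((h _ _ (hy.pmul hz)).eq (by simpa [mul_assoc] using (h _ _ hy).pmul (h _ _ hz)))

theorem Act.lin (hp : Pa s) (h : Act s x σ) : σ = lin (σ 1) (σ 2) (σ 4) (σ 8) := by
  have h0 : σ 0 = 0 := by
    have := h.add hp 0 0
    rwa [(sg_sq 0 0).2.2, (sg_sq _ 0).2.2] at this
  funext v
  nth_rw 1 [← lin_id v]
  simp only [L34.lin, h.add hp]
  congr 1; congr 1; congr 1
  · cases v.1.testBit 0 <;> simp [h0]
  · cases v.1.testBit 1 <;> simp [h0]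
  · cases v.1.testBit 2 <;> simp [h0]
  · cases v.1.testBit 3 <;> simp [h0]

theorem Act.mat (hp : Pa s) (h : Act s x σ) (hA : Rk s A x) (v : Fin 16) :
    ∃ c : k, c ^ 4 = 1 ∧ A * (pm v).map s.φ = c • ((pm (σ v)).map s.φ * A) := by
  obtain ⟨y, hy⟩ := hp v
  exact (hA.mul hy).eq (by simpa using Rk.mul (h _ _ hy) hA)

theorem Act.sp (hp : Pa s) (h : Act s x σ) (v u : Fin 16) : sp (σ v) (σ u) = sp v u := by
  obtain ⟨A, hA⟩ := Rk.ex s x
  obtain ⟨c, hc, e⟩ := h.mat hp hA v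
  obtain ⟨d, hd, e'⟩ := h.mat hp hA u
  obtain ⟨y, hy⟩ := hp (σ v)
  obtain ⟨z, hz⟩ := hp (σ u)
  have e1 := congrArg (fun m : M4 => A * m.map s.φ) (pm_comm v u)
  have e2 := congrArg (fun m : M4 => m.map s.φ) (pm_comm (σ v) (σ u))
  simp only [map_sm, Matrix.map_mul, Matrix.mul_smul] at e1 e2
  rw [← mul_assoc, ← mul_assoc, e, e', smul_mul_assoc, smul_mul_assoc, mul_assoc, mul_assoc, e, e',
    Matrix.mul_smul, Matrix.mul_smul, ← mul_assoc, ← mul_assoc, e2, smul_mul_assoc] at e1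
  simp only [smul_smul] at e1
  have h0 : c * d ≠ 0 := mul_ne_zero (by rintro rfl; simp at hc) (by rintro rfl; simp at hd)
  refine s.φ.injective (mul_left_cancel₀ h0 ?_)
  have := smul_left_injective k (((Rk.mul hz hy).mul hA).unit.ne_zero) e1
  linear_combination this

theorem scal (s : Sx π) {Z : Matrix (Fin 4) (Fin 4) k} (h1 : Z * (pm 1).map s.φ = (pm 1).map s.φ * Z)
    (h2 : Z * (pm 2).map s.φ = (pm 2).map s.φ * Z) (h4 : Z * (pm 4).map s.φ = (pm 4).map s.φ * Z)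
    (h8 : Z * (pm 8).map s.φ = (pm 8).map s.φ * Z) : Z = Z 0 0 • 1 := by
  have two := s.H.two
  rw [show pm 1 = !![1, 0, 0, 0; 0, 1, 0, 0; 0, 0, -1, 0; 0, 0, 0, -1] by decide +kernel] at h1
  rw [show pm 2 = !![1, 0, 0, 0; 0, -1, 0, 0; 0, 0, 1, 0; 0, 0, 0, -1] by decide +kernel] at h2
  rw [show pm 4 = !![0, 0, 1, 0; 0, 0, 0, 1; 1, 0, 0, 0; 0, 1, 0, 0] by decide +kernel] at h4
  rw [show pm 8 = !![0, 1, 0, 0; 1, 0, 0, 0; 0, 0, 0, 1; 0, 0, 1, 0] by decide +kernel] at h8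
  have a := congrFun (congrFun h4 0) 2
  have b := congrFun (congrFun h4 1) 3
  have c := congrFun (congrFun h8 0) 1
  have z : ∀ t : k, (-t = t ↔ t = 0) ∧ (t = -t ↔ t = 0) := fun t =>
    ⟨⟨fun e => mul_left_cancel₀ two (by linear_combination -e), fun e => by simp [e]⟩,
      ⟨fun e => mul_left_cancel₀ two (by linear_combination e), fun e => by simp [e]⟩⟩
  simp [mul_apply, Fin.sum_univ_four] at a b c
  ext i j
  have d := congrFun (congrFun h1 i) j
  have e := congrFun (congrFun h2 i) j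
  fin_cases i <;> fin_cases j <;> simp [mul_apply, Fin.sum_univ_four, z] at d e ⊢ <;>
    first | assumption | simp [← a, ← b, ← c]

theorem Act.lift (hp : Pa s) (h : Act s x σ) (hm : Un m m') (e : Ind m σ) :
    ∃ v y, R s (pm v) y ∧ R s m (x * y) := by
  obtain ⟨A, hA⟩ := Rk.ex s x
  have one : (1 : M4).map s.φ = 1 := Matrix.map_one _ (map_zero _) (map_one _)
  have i1 : m.map s.φ * m'.map s.φ = 1 := by rw [← Matrix.map_mul, hm.1, one]
  have i2 : m'.map s.φ * m.map s.φ = 1 := mul_eq_one_comm.1 i1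
  have key : ∀ v, ∃ c : F9, c * c = 1 ∧
      m'.map s.φ * A * (pm v).map s.φ = s.φ c • ((pm v).map s.φ * (m'.map s.φ * A)) := fun v => by
    obtain ⟨c, hc, e1⟩ := h.mat hp hA v
    obtain ⟨d, hd, e2⟩ := (sm_iff s).1 (e v)
    simp only [Matrix.map_mul] at e2
    have e3 : m'.map s.φ * A * (pm v).map s.φ = (c * d) • ((pm v).map s.φ * (m'.map s.φ * A)) := by
      have : m'.map s.φ * (pm (σ v)).map s.φ = d • ((pm v).map s.φ * m'.map s.φ) := by
        calc _ = m'.map s.φ * ((pm (σ v)).map s.φ * m.map s.φ) * m'.map s.φ := by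
              rw [mul_assoc, mul_assoc, i1, mul_one]
          _ = _ := by rw [e2, Matrix.mul_smul, ← mul_assoc, i2, one_mul, smul_mul_assoc]
      rw [mul_assoc, e1, Matrix.mul_smul, ← mul_assoc, this, smul_mul_assoc, smul_smul, mul_assoc]
    have e4 := congrArg (fun n : M4 => n.map s.φ) (pm_sq v)
    simp only [Matrix.map_mul, map_sm, one] at e4
    have u : IsUnit (m'.map s.φ * A) := (IsUnit.of_mul_eq_one _ i2).mul hA.unit
    generalize m'.map s.φ * A = Z at e3 u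
    have e5 : s.φ (sg v v) • Z = (c * d * (c * d) * s.φ (sg v v)) • Z := by
      calc _ = Z * (pm v).map s.φ * (pm v).map s.φ := by rw [mul_assoc, e4]; simp
        _ = _ := by
          rw [e3, smul_mul_assoc, mul_assoc, e3, Matrix.mul_smul, ← mul_assoc, e4]; simp [smul_smul, mul_assoc]
    have e6 := smul_left_injective k u.ne_zero e5
    have e7 : (c * d - 1) * (c * d + 1) = 0 := by
      rcases (sg_sq v v).1 with e | e <;> simp only [e, map_one, map_neg] at e6
      · linear_combination -e6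
      · linear_combination e6
    rcases mul_eq_zero.1 e7 with e | e
    · exact ⟨1, by simp, by rw [e3, sub_eq_zero.1 e, map_one]⟩
    · exact ⟨-1, by simp, by rw [e3, eq_neg_of_add_eq_zero_left e, map_neg, map_one]⟩
  choose c hc e1 using key
  obtain ⟨v, hv⟩ := pm_ex _ _ _ _ (hc 1) (hc 2) (hc 4) (hc 8)
  have cm : ∀ u, L34.sp v u = c u → m'.map s.φ * A * (pm v).map s.φ * (pm u).map s.φ =
      (pm u).map s.φ * (m'.map s.φ * A * (pm v).map s.φ) := fun u hu => by
    rw [mul_assoc, ← Matrix.map_mul, pm_comm, map_sm, Matrix.map_mul, Matrix.mul_smul, ← mul_assoc, e1 u, hu,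
      smul_mul_assoc, smul_smul, ← map_mul, hc, map_one, one_smul, mul_assoc]
  have e2 := congrArg (m.map s.φ * ·) (scal s (cm 1 hv.1) (cm 2 hv.2.1) (cm 4 hv.2.2.1) (cm 8 hv.2.2.2))
  simp only [← mul_assoc, i1, one_mul, Matrix.mul_smul, mul_one] at e2
  obtain ⟨y, hy⟩ := hp v
  have h4 := (hA.mul hy).four e2 (by rw [← RingHom.mapMatrix_apply, ← RingHom.map_det, hm.2, map_one])
  refine ⟨v, y, hy, ?_⟩
  have := (hA.mul hy).sc (c := _ ^ 3) (by rw [← pow_mul, mul_comm, pow_mul, h4, one_pow])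
  rwa [e2, smul_smul, ← pow_succ, h4, one_smul] at this

end Cfsg.Agent.H5.L34
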